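import Cfsg.Prelude.Def_OddOrder

/-!
No group is minimal simple of odd order, once groups of odd order are solvable.
-/

set_option autoImplicit false

namespace CfsgLib.OddOrderApps

universe u

/-- A non-abelian simple group is not solvable. -/
theorem false_of_minSimpleOddOrder {G : Type u} [Group G] (hG : Cfsg.IsMinSimpleOddOrder G)
    (hs : Group.IsSolvable G) : False := by
  have := hG.2.1
  exact hG.2.2.1 ⟨⟨IsSimpleGroup.comm_iff_isSolvable.2 hs⟩⟩

end CfsgLib.OddOrderApps
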