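import Mathlib
import Cfsg.Agent.Lib.Involutions.BrauerSuzuki
import Cfsg.Agent.Lib.Goldschmidt.Conjugation
import Cfsg.Agent.Lib.CoprimeAction.Basic

/-!
Glauberman's theorem on the automorphisms fixing a Sylow 2-subgroup pointwise: the commutator
subgroup of that group of automorphisms has odd order when the core is trivial.

For a good subgroup `D` of `G⟨u⟩`, with `R = D ∩ G`, an automorphism fixing the Sylow subgroup
induces on `N_G(R)` a map into the abelian group `Z(R)` depending homomorphically on it; so an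
involution in the commutator subgroup is isolated, and Glauberman's Z*-theorem applies.
-/

set_option autoImplicit false
set_option linter.style.haveILetI false

open scoped commutatorElement IsMulCommutative

namespace CfsgLib.OddOrderApps

open Cfsg CfsgLib.CoprimeAction

universe u

variable {G : Type u} [Group G]

/-- The map `φ ↦ (g⁻¹ φ(g))^m` kills commutators when `v ↦ v^m` maps `V` to an abelian fixed
subgroup homomorphically. -/
theorem pow_eq_one_of_mem_commutator {C : Subgroup (MulAut G)} {V Z : Subgroup G} {g : G} {m : ℕ}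
    (hZ : IsMulCommutative ↥Z) (hV : ∀ φ ∈ C, g⁻¹ * φ g ∈ V)
    (hVinv : ∀ φ ∈ C, ∀ v ∈ V, φ v ∈ V) (hfix : ∀ φ ∈ C, ∀ z ∈ Z, φ z = z)
    (hmem : ∀ v ∈ V, v ^ m ∈ Z) (hmul : ∀ a ∈ V, ∀ b ∈ V, (a * b) ^ m = a ^ m * b ^ m)
    {ψ : C} (hψ : ψ ∈ commutator ↥C) : (g⁻¹ * (ψ : MulAut G) g) ^ m = 1 := by
  haveI := hZ
  let f : ↥C →* ↥Z :=
    { toFun := fun φ => ⟨(g⁻¹ * (φ : MulAut G) g) ^ m, hmem _ (hV φ φ.2)⟩
      map_one' := Subtype.ext (by simp)
      map_mul' := fun φ χ => Subtype.ext (by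
        have he : g⁻¹ * ((φ * χ : C) : MulAut G) g =
            (g⁻¹ * (φ : MulAut G) g) * (φ : MulAut G) (g⁻¹ * (χ : MulAut G) g) := by
          simp [Subgroup.coe_mul, MulAut.mul_apply, mul_assoc]
        show (g⁻¹ * ((φ * χ : C) : MulAut G) g) ^ m = _
        rw [he, hmul _ (hV φ φ.2) _ (hVinv φ φ.2 _ (hV χ χ.2)), ← map_pow,
          hfix φ φ.2 _ (hmem _ (hV χ χ.2))]
        rfl) }
  have hker : commutator ↥C ≤ f.ker := by
    rw [commutator_def, Subgroup.commutator_le]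
    intro a _ b _
    rw [MonoidHom.mem_ker, map_commutatorElement, commutatorElement_eq_one_iff_mul_comm]
    exact mul_comm' _ _
  exact congrArg Subtype.val (MonoidHom.mem_ker.1 (hker hψ))

/-- The power map by the index of a central subgroup is a homomorphism. -/
theorem mul_pow_index_of_central [Finite G] {V Z : Subgroup G}
    (hc : ∀ z ∈ Z, ∀ v ∈ V, z * v = v * z) (hle : Z ≤ V) :
    ∀ a ∈ V, ∀ b ∈ V, (a * b) ^ (Z.subgroupOf V).index =
      a ^ (Z.subgroupOf V).index * b ^ (Z.subgroupOf V).index := by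
  let Z' := Z.subgroupOf V
  haveI : IsMulCommutative ↥Z' := ⟨⟨fun a b => Subtype.ext (Subtype.ext
    (hc _ a.2 _ (hle b.2)))⟩⟩
  let ψ : ↥V →* ↥Z' := MonoidHom.transfer (MonoidHom.id ↥Z')
  have hψ : ∀ a : V, (ψ a : V) = a ^ Z'.index := fun a => by
    have key : ∀ (k : ℕ) (a₀ : V), a₀⁻¹ * a ^ k * a₀ ∈ Z' → a₀⁻¹ * a ^ k * a₀ = a ^ k := by
      intro k a₀ h
      have h' : (a₀⁻¹ * a ^ k * a₀) * a₀⁻¹ = a₀⁻¹ * (a₀⁻¹ * a ^ k * a₀) :=
        Subtype.ext (hc _ h _ (a₀⁻¹).2)
      rw [mul_inv_cancel_right] at h'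
      exact (mul_left_cancel h').symm
    show ((MonoidHom.transfer (MonoidHom.id ↥Z') a : Z') : V) = _
    rw [MonoidHom.transfer_eq_pow _ a key]
    rfl
  intro a ha b hb
  have h := congrArg (fun z : Z' => ((z : V) : G)) (map_mul ψ ⟨a, ha⟩ ⟨b, hb⟩)
  simp only [Subgroup.coe_mul, hψ, SubmonoidClass.coe_pow] at h
  exact h

/-- An element of the Sylow subgroup centralizing a good subgroup lies in it. -/
theorem mem_of_centralizes_good {X : Type*} [Group X] [Finite X] {p : ℕ} [Fact p.Prime]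
    {P : Sylow p X} {D : Subgroup X} (hD : CfsgLib.Goldschmidt.IsGood P D) {y : X}
    (hy : y ∈ (P : Subgroup X)) (hyC : y ∈ Subgroup.centralizer (D : Set X)) : y ∈ D := by
  obtain ⟨hDP, hCD, ⟨-, -, -, -, hsup⟩, -⟩ := hD
  set N := Subgroup.normalizer (D : Set X)
  have hOn : D ≤ Subgroup.normalizer
      (((pPrimeCore p ↥N).map N.subtype : Subgroup X) : Set X) :=
    fun d hd => mem_normalizer_of_conj_mem (by
      rintro _ ⟨o, ho, rfl⟩
      exact ⟨⟨d, Subgroup.le_normalizer hd⟩ * o * ⟨d, Subgroup.le_normalizer hd⟩⁻¹,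
        Subgroup.Normal.conj_mem inferInstance o ho _, by simp⟩)
  have h := hCD hyC
  rw [← hsup, ← SetLike.mem_coe,
    Subgroup.coe_mul_of_right_le_normalizer_left _ D hOn] at h
  obtain ⟨o, ho, d, hd, rfl⟩ := h
  have hoP : o ∈ (P : Subgroup X) := by
    simpa using mul_mem hy (inv_mem (hDP hd))
  have hc : (orderOf o).Coprime p := by
    obtain ⟨o', ho', rfl⟩ := ho
    rw [orderOf_injective N.subtype N.subtype_injective]
    exact (CfsgLib.Cores.card_pPrimeCore_coprime p).coprime_dvd_left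
      (Subgroup.orderOf_dvd_natCard _ ho')
  obtain ⟨k, hk⟩ := (IsPGroup.iff_orderOf.1 P.isPGroup') ⟨o, hoP⟩
  rw [Subgroup.orderOf_mk] at hk
  have ho1 : o = 1 := by
    rw [← orderOf_eq_one_iff]
    exact Nat.eq_one_of_dvd_coprimes (hc.pow_right k) dvd_rfl (dvd_of_eq hk)
  simpa [ho1] using hd

variable {X : Type u} [Group X]

/-- `X = G⟨τ⟩`, with `τ` inducing the automorphism `u` and centralizing the Sylow subgroup
`S⟨τ⟩`. -/
structure AutExt (S : Sylow 2 G) (u : MulAut G) (ι : G →* X) (τ : X) (P : Sylow 2 X) : Prop where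
  inj : Function.Injective ι
  rel : ∀ g : G, τ * ι g * τ⁻¹ = ι (u g)
  invol : ∀ g : G, u (u g) = g
  dec : ∀ x : X, ∃ (g : G) (j : ℤ), x = ι g * τ ^ j
  memS : ∀ g : G, ι g ∈ (P : Subgroup X) ↔ g ∈ S
  memT : τ ∈ (P : Subgroup X)
  cent : ∀ y ∈ (P : Subgroup X), y * τ = τ * y

namespace AutExt

variable [Finite G] [Finite X] {S : Sylow 2 G} {u : MulAut G} {ι : G →* X} {τ : X} {P : Sylow 2 X}

theorem mem_good (h : AutExt S u ι τ P) {D : Subgroup X}
    (hD : CfsgLib.Goldschmidt.IsGood P D) : τ ∈ D := by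
  haveI : Fact (Nat.Prime 2) := ⟨Nat.prime_two⟩
  exact mem_of_centralizes_good hD h.memT
    (Subgroup.mem_centralizer_iff.2 fun d hd => h.cent d (hD.1 hd))

theorem dec_good (h : AutExt S u ι τ P) {D : Subgroup X}
    (hD : CfsgLib.Goldschmidt.IsGood P D) {d : X} (hd : d ∈ D) :
    ∃ r ∈ D.comap ι, ∃ j : ℤ, d = ι r * τ ^ j := by
  obtain ⟨r, j, rfl⟩ := h.dec d
  refine ⟨r, ?_, j, rfl⟩
  show ι r ∈ D
  simpa using mul_mem hd (inv_mem (zpow_mem (h.mem_good hD) j))

theorem comap_le (h : AutExt S u ι τ P) {D : Subgroup X}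
    (hD : CfsgLib.Goldschmidt.IsGood P D) : D.comap ι ≤ S := fun r hr =>
  (h.memS r).1 (hD.1 hr)

theorem mem_comap_of_centralizes (h : AutExt S u ι τ P) {D : Subgroup X}
    (hD : CfsgLib.Goldschmidt.IsGood P D) {s : G} (hs : s ∈ S)
    (hsV : s ∈ Subgroup.centralizer ((D.comap ι : Subgroup G) : Set G)) : s ∈ D.comap ι := by
  haveI : Fact (Nat.Prime 2) := ⟨Nat.prime_two⟩
  refine mem_of_centralizes_good hD ((h.memS s).2 hs)
    (Subgroup.mem_centralizer_iff.2 fun d hd => ?_)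
  obtain ⟨r, hr, j, rfl⟩ := h.dec_good hD hd
  have h1 : r * s = s * r := Subgroup.mem_centralizer_iff.1 hsV r hr
  have h2 : Commute (ι s) τ := h.cent _ ((h.memS s).2 hs)
  rw [mul_assoc, ← (h2.zpow_right j).eq, ← mul_assoc, ← map_mul, h1, map_mul, mul_assoc]

theorem tau_zpow (h : AutExt S u ι τ P) (j : ℤ) (g : G) :
    τ ^ j * ι g * (τ ^ j)⁻¹ = ι ((u ^ j) g) := by
  induction j using Int.induction_on generalizing g with
  | zero => simp
  | succ i ih =>
    rw [zpow_add_one, zpow_add_one, MulAut.mul_apply, ← ih, ← h.rel]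
    simp [mul_assoc]
  | pred i ih =>
    rw [zpow_sub_one, zpow_sub_one, MulAut.mul_apply, ← ih]
    have h1 := h.rel (u⁻¹ g)
    rw [show u (u⁻¹ g) = g from u.apply_symm_apply g] at h1
    rw [← h1]
    simp [mul_assoc]

/-- `C_G(R)/Z(R)` has odd order. -/
theorem odd_index (h : AutExt S u ι τ P) {D : Subgroup X}
    (hD : CfsgLib.Goldschmidt.IsGood P D) {C : Subgroup (MulAut G)} (huC : u ∈ C)
    (hC : ∀ φ ∈ C, ∀ s : G, s ∈ S → φ s = s) :
    Odd ((D.comap ι ⊓ Subgroup.centralizer ((D.comap ι : Subgroup G) : Set G)).subgroupOf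
      (Subgroup.centralizer ((D.comap ι : Subgroup G) : Set G))).index := by
  haveI : Fact (Nat.Prime 2) := ⟨Nat.prime_two⟩
  set R : Subgroup G := D.comap ι with hR
  set V : Subgroup G := Subgroup.centralizer (R : Set G) with hV
  set Z₀ : Subgroup G := R ⊓ V with hZ₀
  have hCR : ∀ φ ∈ C, ∀ r ∈ R, φ r = r := fun φ hφ r hr => hC φ hφ r (h.comap_le hD hr)
  have hVinv : ∀ φ ∈ C, ∀ v ∈ V, φ v ∈ V := fun φ hφ v hv =>
    Subgroup.mem_centralizer_iff.2 fun r hr => by
      rw [← hCR φ hφ r hr, ← map_mul, ← map_mul, Subgroup.mem_centralizer_iff.1 hv r hr]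
  have hc : ∀ z ∈ Z₀, ∀ v ∈ V, z * v = v * z := fun z hz v hv =>
    Subgroup.mem_centralizer_iff.1 hv z hz.1
  haveI hZ₀n : (Z₀.subgroupOf V).Normal := ⟨fun z hz v => by
    rw [show v * z * v⁻¹ = z from Subtype.ext (by
      show (v : G) * z * (v : G)⁻¹ = z
      rw [← hc z hz v v.2, mul_inv_cancel_right])]
    exact hz⟩
  rw [Nat.odd_iff]
  by_contra hev
  have hev' : Even (Nat.card (↥V ⧸ Z₀.subgroupOf V)) := by
    rw [← Subgroup.index_eq_card, Nat.even_iff]; omega
  let α : V →* V :=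
    { toFun := fun v => ⟨u v, hVinv u huC v v.2⟩
      map_one' := Subtype.ext (by simp)
      map_mul' := fun a b => Subtype.ext (by simp) }
  let β : ↥V ⧸ Z₀.subgroupOf V →* ↥V ⧸ Z₀.subgroupOf V := QuotientGroup.map _ _ α (fun z hz => by
    show u z ∈ Z₀
    rw [hCR u huC z hz.1]
    exact hz)
  have hββ : ∀ q, β (β q) = q := fun q => by
    induction q using QuotientGroup.induction_on with
    | H v => exact congrArg _ (Subtype.ext (h.invol v))
  have hinj : Function.Injective β := fun a b e => by rw [← hββ a, ← hββ b, e]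
  let βI : {q : ↥V ⧸ Z₀.subgroupOf V // orderOf q = 2} →
      {q : ↥V ⧸ Z₀.subgroupOf V // orderOf q = 2} := fun q => ⟨β q.1, by
    rw [orderOf_injective β hinj]
    exact q.2⟩
  have hI := CfsgLib.Involutions.odd_card_involutions hev'
  obtain ⟨⟨q, hq⟩, hfix⟩ : ∃ q, βI q = q := by
    classical
    haveI := Fintype.ofFinite {q : ↥V ⧸ Z₀.subgroupOf V // orderOf q = 2}
    let σ : Equiv.Perm {q : ↥V ⧸ Z₀.subgroupOf V // orderOf q = 2} :=
      ⟨βI, βI, fun q => Subtype.ext (hββ q.1), fun q => Subtype.ext (hββ q.1)⟩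
    obtain ⟨a, ha⟩ := σ.exists_fixed_point_of_prime (n := 1) (p := 2)
      (by rw [← Nat.card_eq_fintype_card, Nat.two_dvd_ne_zero]; exact Nat.odd_iff.1 hI)
      (by rw [pow_one, pow_two]; exact Equiv.ext fun q => Subtype.ext (hββ q.1))
    exact ⟨a, ha⟩
  obtain ⟨v, rfl⟩ := QuotientGroup.mk'_surjective _ q
  have hvZ : (v : G) ∉ Z₀ := fun h' => by
    have h1 : QuotientGroup.mk' (Z₀.subgroupOf V) v = 1 := (QuotientGroup.eq_one_iff v).2 h'
    rw [h1, orderOf_one] at hq
    exact absurd hq (by norm_num)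
  have hv2 : (v : G) ^ 2 ∈ Z₀ :=
    (QuotientGroup.eq_one_iff (N := Z₀.subgroupOf V) (v ^ 2)).1 (by
      show QuotientGroup.mk' _ (v ^ 2) = 1
      rw [map_pow, ← hq, pow_orderOf_eq_one])
  have hvfix : (v : G)⁻¹ * u v ∈ Z₀ :=
    (QuotientGroup.eq (s := Z₀.subgroupOf V) (a := v) (b := α v)).1
      (congrArg Subtype.val hfix).symm
  have hτD := h.mem_good hD
  have h4 : (v : G) * (u v)⁻¹ = ((v : G)⁻¹ * u v)⁻¹ := by
    have hh := hc _ (inv_mem hvfix) (v : G) v.2
    rw [mul_inv_rev, inv_inv] at hh ⊢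
    rw [← mul_assoc] at hh
    exact (mul_right_cancel hh).symm
  have hvD : ι v ∈ Subgroup.normalizer (D : Set X) := by
    refine mem_normalizer_of_conj_mem fun d hd => ?_
    obtain ⟨r, hr, j, rfl⟩ := h.dec_good hD hd
    have h1 : ι v * ι r * (ι v)⁻¹ = ι r := by
      rw [← map_mul, ← map_inv, ← map_mul, ← Subgroup.mem_centralizer_iff.1 v.2 r hr,
        mul_inv_cancel_right]
    have h2 : ι v * τ * (ι v)⁻¹ ∈ D := by
      have h3 : τ * (ι v)⁻¹ = ι (u (v : G))⁻¹ * τ := by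
        rw [← map_inv u, ← h.rel, inv_mul_cancel_right, map_inv]
      rw [mul_assoc, h3, ← mul_assoc, ← map_mul, h4]
      exact mul_mem (inv_mem hvfix : _ ∈ Z₀).1 hτD
    have : ι v * (ι r * τ ^ j) * (ι v)⁻¹ = (ι v * ι r * (ι v)⁻¹) * (ι v * τ * (ι v)⁻¹) ^ j := by
      rw [conj_zpow]; simp [mul_assoc]
    rw [this, h1]
    exact mul_mem hr (zpow_mem h2 j)
  -- it is conjugate in `N(D)` into `P ∩ N(D)`
  let N := Subgroup.normalizer (D : Set X)
  let SN : Sylow 2 N := ((P.2.to_inf_left (K := N)).comap_subtype).toSylow hD.2.2.2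
  have hvp : IsPGroup 2 (Subgroup.zpowers (⟨ι v, hvD⟩ : N)) := by
    obtain ⟨k, hk⟩ := S.isPGroup' ⟨(v : G) ^ 2, h.comap_le hD hv2.1⟩
    have h1 : (⟨ι v, hvD⟩ : N) ^ (2 ^ (k + 1)) = 1 := Subtype.ext (by
      have h2 : ((v : G) ^ 2) ^ (2 ^ k) = 1 := congrArg Subtype.val hk
      rw [pow_succ', pow_mul]
      show ((ι v) ^ 2) ^ (2 ^ k) = 1
      rw [← map_pow, ← map_pow, h2, map_one])
    obtain ⟨l, -, hl⟩ := (Nat.dvd_prime_pow Nat.prime_two).1 (orderOf_dvd_of_pow_eq_one h1)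
    exact IsPGroup.of_card (n := l) (by rw [Nat.card_zpowers, hl])
  obtain ⟨Q', hQ'⟩ := hvp.exists_le_sylow
  obtain ⟨n, hn⟩ := MulAction.exists_smul_eq N Q' SN
  have hnv : n * ⟨ι v, hvD⟩ * n⁻¹ ∈ (SN : Subgroup N) := by
    rw [← hn, Sylow.coe_subgroup_smul]
    exact ⟨_, hQ' (Subgroup.mem_zpowers _), rfl⟩
  have hnP : (n : X) * ι v * (n : X)⁻¹ ∈ (P : Subgroup X) := hnv.1
  obtain ⟨g, j, hn'⟩ := h.dec (n : X)
  have hgN : ι g ∈ N := by
    rw [eq_mul_inv_of_mul_eq hn'.symm]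
    exact mul_mem n.2 (inv_mem (Subgroup.le_normalizer (zpow_mem hτD j)))
  have hgR : ∀ r ∈ R, g⁻¹ * r * g ∈ R := fun r hr => by
    show ι (g⁻¹ * r * g) ∈ D
    rw [map_mul, map_mul, map_inv]
    exact conj_mem' hgN hr
  set v' := (u ^ j) (v : G) with hv'
  have hv'V : v' ∈ V := hVinv _ (zpow_mem huC j) _ v.2
  have hconj : (n : X) * ι v * (n : X)⁻¹ = ι (g * v' * g⁻¹) := by
    rw [hn', mul_inv_rev, map_mul, map_mul, map_inv, hv', ← h.tau_zpow j]
    simp [mul_assoc]
  rw [hconj, h.memS] at hnP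
  have hgv : g * v' * g⁻¹ ∈ R := by
    refine h.mem_comap_of_centralizes hD hnP (Subgroup.mem_centralizer_iff.2 fun r hr => ?_)
    have := Subgroup.mem_centralizer_iff.1 hv'V _ (hgR r hr)
    calc r * (g * v' * g⁻¹) = g * ((g⁻¹ * r * g) * v') * g⁻¹ := by simp [mul_assoc]
      _ = _ := by rw [this]; simp [mul_assoc]
  have hv'R : v' ∈ R := by simpa [mul_assoc] using hgR _ hgv
  refine hvZ ⟨?_, v.2⟩
  have hback : v' = (v : G) := by
    have h' := hCR _ (inv_mem (zpow_mem huC j)) v' hv'R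
    rw [show ((u ^ j)⁻¹ : MulAut G) v' = (v : G) from (u ^ j).symm_apply_apply (v : G)] at h'
    exact h'.symm
  rw [← hback]; exact hv'R

/-- Normalizers of good subgroups centralize `τ`. -/
theorem fixed_by_good (h : AutExt S u ι τ P) {D : Subgroup X}
    (hD : CfsgLib.Goldschmidt.IsGood P D) {C : Subgroup (MulAut G)} {t : C} (htu : (t : MulAut G) = u)
    (htc : t ∈ commutator ↥C) (hC : ∀ φ ∈ C, ∀ s : G, s ∈ S → φ s = s) {x : X}
    (hx : x ∈ Subgroup.normalizer (D : Set X)) : x⁻¹ * τ * x = τ := by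
  have hodd := h.odd_index hD (htu ▸ t.2 : u ∈ C) hC
  set R : Subgroup G := D.comap ι with hR
  set V : Subgroup G := Subgroup.centralizer (R : Set G) with hV
  set Z₀ : Subgroup G := R ⊓ V with hZ₀
  have hc : ∀ z ∈ Z₀, ∀ v ∈ V, z * v = v * z := fun z hz v hv =>
    Subgroup.mem_centralizer_iff.1 hv z hz.1
  haveI : (Z₀.subgroupOf V).Normal := ⟨fun z hz v => by
    rw [show v * z * v⁻¹ = z from Subtype.ext (by
      show (v : G) * z * (v : G)⁻¹ = z
      rw [← hc z hz v v.2, mul_inv_cancel_right])]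
    exact hz⟩
  have hτD := h.mem_good hD
  have hCR : ∀ φ ∈ C, ∀ r ∈ R, φ r = r := fun φ hφ r hr => hC φ hφ r (h.comap_le hD hr)
  have hVinv : ∀ φ ∈ C, ∀ v ∈ V, φ v ∈ V := fun φ hφ v hv =>
    Subgroup.mem_centralizer_iff.2 fun r hr => by
      rw [← hCR φ hφ r hr, ← map_mul, ← map_mul, Subgroup.mem_centralizer_iff.1 hv r hr]
  obtain ⟨g, j, hx'⟩ := h.dec x
  have hgN : ι g ∈ Subgroup.normalizer (D : Set X) := by
    rw [eq_mul_inv_of_mul_eq hx'.symm]
    exact mul_mem hx (inv_mem (Subgroup.le_normalizer (zpow_mem hτD j)))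
  have hgV : ∀ φ ∈ C, g⁻¹ * φ g ∈ V := fun φ hφ => by
    refine Subgroup.mem_centralizer_iff.2 fun r hr => ?_
    have hr' : g * r * g⁻¹ ∈ R := by
      show ι (g * r * g⁻¹) ∈ D
      rw [map_mul, map_mul, map_inv]
      exact conj_mem hgN hr
    have h' := hCR φ hφ _ hr'
    rw [map_mul, map_mul, map_inv, hCR φ hφ r hr] at h'
    calc r * (g⁻¹ * φ g) = g⁻¹ * (g * r * g⁻¹) * φ g := by simp [mul_assoc]
      _ = g⁻¹ * (φ g * r * (φ g)⁻¹) * φ g := by rw [h']
      _ = _ := by simp [mul_assoc]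
  have hZc : IsMulCommutative ↥Z₀ := ⟨⟨fun a b => Subtype.ext (hc _ a.2 _ b.2.2)⟩⟩
  have hmem : ∀ v ∈ V, v ^ (Z₀.subgroupOf V).index ∈ Z₀ := fun v hv =>
    (Z₀.subgroupOf V).pow_index_mem ⟨v, hv⟩
  have hw1 := pow_eq_one_of_mem_commutator (ψ := t) hZc hgV hVinv
    (fun φ hφ z hz => hCR φ hφ z hz.1) hmem (mul_pow_index_of_central hc inf_le_right) htc
  rw [htu] at hw1
  have hwR : g⁻¹ * u g ∈ R := by
    show ι (g⁻¹ * u g) ∈ D
    rw [map_mul, map_inv, ← h.rel, ← mul_assoc, ← mul_assoc]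
    exact mul_mem (conj_mem' hgN hτD) (inv_mem hτD)
  have hw : g⁻¹ * u g = 1 := by
    obtain ⟨k, hk⟩ := S.isPGroup' ⟨_, h.comap_le hD hwR⟩
    rw [← orderOf_eq_one_iff]
    exact Nat.eq_one_of_dvd_coprimes ((Nat.coprime_two_right.2 hodd).pow_right k)
      (orderOf_dvd_of_pow_eq_one hw1)
      (orderOf_dvd_of_pow_eq_one (congrArg Subtype.val hk))
  have hcg : Commute (ι g) τ := by
    have := h.rel g
    rw [(inv_mul_eq_one.1 hw).symm] at this
    exact (mul_inv_eq_iff_eq_mul.1 this).symm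
  have hxc : Commute x τ := by
    rw [hx']
    exact hcg.mul_left (Commute.zpow_self τ j)
  rw [mul_assoc, ← hxc.eq, inv_mul_cancel_left]

/-- `τ` is isolated. -/
theorem isolated (h : AutExt S u ι τ P) {C : Subgroup (MulAut G)} {t : C} (htu : (t : MulAut G) = u)
    (htc : t ∈ commutator ↥C) (hC : ∀ φ ∈ C, ∀ s : G, s ∈ S → φ s = s) (g : X)
    (hg : g * τ * g⁻¹ ∈ P) : g * τ * g⁻¹ = τ := by
  haveI : Fact (Nat.Prime 2) := ⟨Nat.prime_two⟩
  have hfix : ∀ (A : Set X) (k : X), CfsgLib.Goldschmidt.Conj P A k → A = {τ} →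
      k⁻¹ * τ * k = τ := by
    intro A k hk
    induction hk with
    | centralize A c hc =>
      intro hA
      have := hc τ (by rw [hA]; rfl)
      rw [mul_assoc, this, inv_mul_cancel_left]
    | step A D x k hAD hD hx _ ih =>
      intro hA
      have h1 := h.fixed_by_good hD htu htc hC hx
      have h2 := ih (by rw [hA, Set.image_singleton, h1])
      calc (x * k)⁻¹ * τ * (x * k) = k⁻¹ * (x⁻¹ * τ * x) * k := by simp [mul_assoc]
        _ = τ := by rw [h1, h2]
  have h' := CfsgLib.Goldschmidt.conj_of_fusion P (A := {τ}) (g := g⁻¹)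
    (Set.singleton_subset_iff.2 h.memT) (by
      rw [Set.image_singleton, inv_inv]; exact Set.singleton_subset_iff.2 hg)
  simpa using hfix _ _ h' rfl

end AutExt

variable [Finite G]

/-- An automorphism of order 2 fixing a Sylow 2-subgroup gives such an extension. -/
theorem exists_autExt (S : Sylow 2 G) {u : MulAut G} (huo : orderOf u = 2)
    (hS : ∀ s : G, s ∈ S → u s = s) :
    ∃ (X : Type u) (_ : Group X) (_ : Finite X) (ι : G →* X) (τ : X) (P : Sylow 2 X),
      orderOf τ = 2 ∧ AutExt S u ι τ P := by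
  haveI : Fact (Nat.Prime 2) := ⟨Nat.prime_two⟩
  let Z : Subgroup (MulAut G) := Subgroup.zpowers u
  let w : Z := ⟨u, Subgroup.mem_zpowers u⟩
  have hZfix : ∀ φ : Z, ∀ s : G, s ∈ S → (φ : MulAut G) s = s := fun φ s hs => by
    have hle : Z ≤ MulAction.stabilizer (MulAut G) s := Subgroup.zpowers_le.2 (hS s hs)
    exact hle φ.2
  haveI : Finite (MulAut G) := Finite.of_injective (fun e => (e : G → G)) DFunLike.coe_injective
  haveI : Finite (G ⋊[Z.subtype] ↥Z) := Finite.of_equiv _ SemidirectProduct.equivProd.symm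
  let P₀ : Subgroup (G ⋊[Z.subtype] ↥Z) :=
    { carrier := {x | x.left ∈ S}
      one_mem' := by simp [SemidirectProduct.one_left]
      mul_mem' := fun {a b} ha hb => by
        show (a * b).left ∈ S
        rw [SemidirectProduct.mul_left]
        refine mul_mem ha ?_
        show (a.right : MulAut G) b.left ∈ S
        rw [hZfix a.right _ hb]
        exact hb
      inv_mem' := fun {a} ha => by
        show (a⁻¹).left ∈ S
        rw [SemidirectProduct.inv_left]
        show ((a.right⁻¹ : Z) : MulAut G) a.left⁻¹ ∈ S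
        rw [hZfix _ _ (inv_mem ha)]
        exact inv_mem ha }
  have hP₀card : Nat.card P₀ = Nat.card (S : Subgroup G) * Nat.card Z := by
    rw [← Nat.card_prod]
    exact Nat.card_congr
      { toFun := fun x => (⟨x.1.left, x.2⟩, x.1.right)
        invFun := fun p => ⟨⟨p.1, p.2⟩, p.1.2⟩
        left_inv := fun x => rfl
        right_inv := fun p => rfl }
  have hXcard : Nat.card (G ⋊[Z.subtype] ↥Z) = Nat.card G * Nat.card Z := by
    rw [Nat.card_congr SemidirectProduct.equivProd, Nat.card_prod]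
  have hZcard : Nat.card Z = 2 := by rw [Nat.card_zpowers, huo]
  have hP₀p : IsPGroup 2 P₀ := by
    obtain ⟨n, hn⟩ := IsPGroup.iff_card.1 S.isPGroup'
    exact IsPGroup.of_card (n := n + 1) (by rw [hP₀card, hn, hZcard, pow_succ])
  have hP₀index : ¬ 2 ∣ P₀.index := by
    have h1 := P₀.card_mul_index
    rw [hP₀card, hXcard, ← (S : Subgroup G).card_mul_index, mul_assoc, mul_assoc] at h1
    have h2 := Nat.eq_of_mul_eq_mul_left Nat.card_pos h1
    rw [mul_comm] at h2
    rw [Nat.eq_of_mul_eq_mul_right Nat.card_pos h2]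
    exact S.not_dvd_index
  refine ⟨G ⋊[Z.subtype] ↥Z, inferInstance, inferInstance, SemidirectProduct.inl,
    SemidirectProduct.inr w, hP₀p.toSylow hP₀index, ?_, ?_⟩
  · rw [orderOf_injective (SemidirectProduct.inr : ↥Z →* G ⋊[Z.subtype] ↥Z)
      SemidirectProduct.inr_injective, ← Subgroup.orderOf_coe]
    exact huo
  refine ⟨SemidirectProduct.inl_injective, fun g => ?_, fun g => ?_, fun x => ?_, fun g => ?_, ?_,
    fun y hy => ?_⟩
  · rw [← map_inv (SemidirectProduct.inr : ↥Z →* G ⋊[Z.subtype] ↥Z)]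
    exact (SemidirectProduct.inl_aut (φ := Z.subtype) w g).symm
  · have h : u * u = 1 := by rw [← pow_two, ← huo, pow_orderOf_eq_one]
    simpa using congrArg (fun e : MulAut G => e g) h
  · obtain ⟨j, hj⟩ := Subgroup.mem_zpowers_iff.1 x.right.2
    refine ⟨x.left, j, ?_⟩
    rw [← map_zpow, show w ^ j = x.right from Subtype.ext (by simpa using hj)]
    exact (SemidirectProduct.inl_left_mul_inr_right x).symm
  · exact Iff.rfl
  · exact one_mem (S : Subgroup G)
  · refine SemidirectProduct.ext ?_ ?_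
    · show y.left * (y.right : MulAut G) 1 = 1 * u y.left
      rw [map_one, mul_one, one_mul]
      exact (hS _ hy).symm
    · show y.right * w = w * y.right
      exact mul_comm' _ _

/-- An involution of the commutator subgroup of the automorphisms fixing a Sylow 2-subgroup
centralizes `G`. -/
theorem false_of_involution_commutator
    (hO : ∀ N : Subgroup G, N.Normal → Odd (Nat.card N) → N = ⊥) (S : Sylow 2 G)
    {C : Subgroup (MulAut G)} (hC : ∀ φ ∈ C, ∀ s : G, s ∈ S → φ s = s) {t : C}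
    (ht : orderOf t = 2) (htc : t ∈ commutator ↥C) : False := by
  haveI : Fact (Nat.Prime 2) := ⟨Nat.prime_two⟩
  have huo : orderOf (t : MulAut G) = 2 := (Subgroup.orderOf_coe t).trans ht
  obtain ⟨X, _, _, ι, τ, P, hτo, h⟩ := exists_autExt S huo (hC _ t.2)
  have hbot : (oddCore X).comap ι = ⊥ := by
    refine hO _ inferInstance ?_
    exact (Nat.coprime_two_right.1 (CfsgLib.Cores.card_pPrimeCore_coprime (G := X) 2)).of_dvd_nat
      (Subgroup.card_comap_dvd_of_injective _ _ h.inj)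
  have hall : ∀ g : G, (t : MulAut G) g = g := by
    intro g
    have h' := CfsgLib.Involutions.zstar_isolated P hτo (h.isolated rfl htc hC) (ι g)
    rw [h.rel, ← map_inv, ← map_mul] at h'
    have h2 : (t : MulAut G) g * g⁻¹ ∈ (oddCore X).comap ι := h'
    rw [hbot, Subgroup.mem_bot, mul_inv_eq_one] at h2
    exact h2
  have hu1 : (t : MulAut G) = 1 := MulEquiv.ext hall
  rw [hu1, orderOf_one] at huo
  exact absurd huo (by norm_num)

/-- **Glauberman's theorem on automorphisms fixing a Sylow 2-subgroup.** -/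
theorem sylow_fixing_aut (hO : ∀ N : Subgroup G, N.Normal → Odd (Nat.card N) → N = ⊥)
    (S : Sylow 2 G) (C : Subgroup (MulAut G)) (hC : ∀ φ ∈ C, ∀ s : G, s ∈ S → φ s = s) :
    Odd (Nat.card (commutator ↥C)) ∧
      ∀ T : Sylow 2 ↥C, (∀ a b : ↥T, a * b = b * a) ∧
        ∃ N : Subgroup ↥C, N.Normal ∧ Subgroup.IsComplement' N (T : Subgroup ↥C) := by
  haveI : Fact (Nat.Prime 2) := ⟨Nat.prime_two⟩
  haveI : Finite (MulAut G) := Finite.of_injective (fun e => (e : G → G)) DFunLike.coe_injective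
  have hodd : Odd (Nat.card (commutator ↥C)) := by
    by_contra h
    obtain ⟨z, hz⟩ := exists_prime_orderOf_dvd_card' (G := ↥(commutator ↥C)) 2
      (Nat.not_odd_iff_even.1 h).two_dvd
    exact false_of_involution_commutator hO S hC (t := (z : ↥C))
      ((Subgroup.orderOf_coe z).trans hz) z.2
  refine ⟨hodd, fun T => ?_⟩
  have hbot : (T : Subgroup ↥C) ⊓ commutator ↥C = ⊥ := by
    obtain ⟨k, hk⟩ := T.isPGroup'.exists_card_eq
    refine Subgroup.inf_eq_bot_of_coprime ?_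
    rw [hk]
    exact Nat.Coprime.pow_left k (Nat.coprime_two_left.2 hodd)
  have hcomm : ∀ (a : ↥C), a ∈ Subgroup.normalizer ((T : Subgroup ↥C) : Set ↥C) →
      ∀ b ∈ (T : Subgroup ↥C), a * b = b * a := by
    intro a ha b hb
    have h1 : ⁅a, b⁆ ∈ (T : Subgroup ↥C) ⊓ commutator ↥C := ⟨by
      rw [commutatorElement_def]
      exact (T : Subgroup ↥C).mul_mem (conj_mem ha hb) ((T : Subgroup ↥C).inv_mem hb),
      Subgroup.commutator_mem_commutator (Subgroup.mem_top a) (Subgroup.mem_top b)⟩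
    rw [hbot, Subgroup.mem_bot] at h1
    exact commutatorElement_eq_one_iff_mul_comm.1 h1
  refine ⟨fun a b => Subtype.ext (hcomm a (Subgroup.le_normalizer a.2) b b.2), ?_⟩
  have hNC : Subgroup.normalizer ((T : Subgroup ↥C) : Set ↥C) ≤
      Subgroup.centralizer ((T : Subgroup ↥C) : Set ↥C) := fun a ha =>
    Subgroup.mem_centralizer_iff.2 fun b hb => (hcomm a ha b hb).symm
  exact ⟨(MonoidHom.transferSylow T hNC).ker, inferInstance,
    MonoidHom.ker_transferSylow_isComplement' T hNC⟩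

/-- With the odd order theorem the group is solvable. -/
theorem isSolvable_sylow_fixing_aut (hO : ∀ N : Subgroup G, N.Normal → Odd (Nat.card N) → N = ⊥)
    (S : Sylow 2 G) (C : Subgroup (MulAut G)) (hC : ∀ φ ∈ C, ∀ s : G, s ∈ S → φ s = s)
    (hsol : ∀ H : Subgroup ↥C, Odd (Nat.card H) → Group.IsSolvable H) : Group.IsSolvable ↥C := by
  haveI := hsol _ (sylow_fixing_aut hO S C hC).1
  exact Group.isSolvable_of_ker_le_range (commutator ↥C).subtype (Abelianization.of (G := ↥C))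
    (by rw [Abelianization.ker_of, Subgroup.range_subtype])

end CfsgLib.OddOrderApps
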